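import Cfsg.Agent.Lib.PF.Sec3Eta

/-!
# Peterfalvi, Section 3: comparison of `EtaFam` with `IsCyclicTIFamily` of the Prelude
-/

set_option autoImplicit false

namespace Cfsg.Lib.PF

open scoped ComplexConjugate

variable {X : Type*} [Group X] {W₁ W₂ : Subgroup X}

/-- The linear characters of `W₁ × W₂` are the pairs of linear characters of the factors. -/
noncomputable def CommProd.lcharEquiv [Finite X] (h : CommProd W₁ W₂) :
    LChar (W₁ ⊔ W₂) ≃ LChar W₁ × LChar W₂ :=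
  Equiv.ofBijective (fun ω => (resL ω, resR ω))
    ⟨fun _ _ e => h.res_inj.2 (Prod.ext_iff.1 e), fun p => by
      obtain ⟨ω, h1, h2⟩ := h.exists_res_eq p.1 p.2
      exact ⟨ω, Prod.ext h1 h2⟩⟩

namespace CommProd

section

variable [Finite X] (h : CommProd W₁ W₂)

theorem lcharEquiv_apply (ω : LChar (W₁ ⊔ W₂)) : h.lcharEquiv ω = (resL ω, resR ω) := rfl

theorem resL_symm (i : LChar W₁) (j : LChar W₂) : resL (h.lcharEquiv.symm (i, j)) = i :=
  congrArg Prod.fst (h.lcharEquiv.apply_symm_apply (i, j))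

theorem resR_symm (i : LChar W₁) (j : LChar W₂) : resR (h.lcharEquiv.symm (i, j)) = j :=
  congrArg Prod.snd (h.lcharEquiv.apply_symm_apply (i, j))

theorem symm_res (ω : LChar (W₁ ⊔ W₂)) : h.lcharEquiv.symm (resL ω, resR ω) = ω :=
  h.lcharEquiv.symm_apply_apply ω

include h in
theorem coe_alpha {φ ψ : LChar (W₁ ⊔ W₂)} (hφ : resR φ = 1) (hψ : resL ψ = 1) :
    (fun w : ↥(W₁ ⊔ W₂) => (omega W₁ W₂ 1 1 - omega W₁ W₂ (resL φ) 1 - omega W₁ W₂ 1 (resR ψ) +
      omega W₁ W₂ (resL φ) (resR ψ)) w) =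
      fun w => 1 - (φ w : ℂ) - (ψ w : ℂ) + (φ w : ℂ) * (ψ w : ℂ) := by
  have e1 : omega W₁ W₂ (resL φ) 1 = linChar _ φ := by rw [← hφ, h.omega_res]
  have e2 : omega W₁ W₂ 1 (resR ψ) = linChar _ ψ := by rw [← hψ, h.omega_res]
  have e3 : omega W₁ W₂ (resL φ) (resR ψ) = linChar _ (φ * ψ) := by
    rw [← h.omega_res, resL_mul, resR_mul, hφ, hψ, LChar.mul_one, LChar.one_mul]
  funext w
  rw [e1, e2, e3, h.omega_one_one]
  simp [cf1_of_mem w.2]

end

variable [Fintype X] (h : CommProd W₁ W₂)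

theorem etaFam_of_family {χ : LChar (W₁ ⊔ W₂) → X → ℂ} (hχ : IsCyclicTIFamily W₁ W₂ χ) :
    EtaFam ⊤ W₁ W₂ (fun i j => χ (h.lcharEquiv.symm (i, j))) where
  prod := h
  le := le_top
  dirr _ _ := isDirr_top.2 (hχ.irr_or_neg _)
  orth i j i' j' hne := by
    rw [cfdot_top, hχ.orthonormal, if_neg]
    exact fun e => hne (Prod.ext_iff.1 (h.lcharEquiv.symm.injective e))
  one := by
    have e1 : h.lcharEquiv.symm (1, 1) = 1 := h.symm_res 1
    rw [e1, hχ.map_one, cf1_top]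
  ind_eq i j hi hj := by
    have h1 := h.resL_symm i 1
    have h2 := h.resR_symm i 1
    have h3 := h.resL_symm 1 j
    have h4 := h.resR_symm 1 j
    have e := hχ.induced_eq (h.lcharEquiv.symm (i, 1)) (h.lcharEquiv.symm (1, j))
      (fun e => hi (by rw [← h1, e, resL_one])) (fun e => hj (by rw [← h4, e, resR_one]))
      (resR_eq_one_iff.1 h2) (resL_eq_one_iff.1 h3)
    rw [← h.coe_alpha h2 h3, ← ind_top, h1, h4] at e
    have e1 : h.lcharEquiv.symm (1, 1) = 1 := h.symm_res 1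
    have e2 : h.lcharEquiv.symm (i, 1) * h.lcharEquiv.symm (1, j) = h.lcharEquiv.symm (i, j) :=
      h.res_inj.2 (by simp [resL_mul, resR_mul, h.resL_symm, h.resR_symm])
    rw [e, e1, e2, hχ.map_one]
    rfl

end CommProd

theorem EtaFam.isCyclicTIFamily [Fintype X] {η : LChar W₁ → LChar W₂ → X → ℂ}
    (F : EtaFam ⊤ W₁ W₂ η) : IsCyclicTIFamily W₁ W₂ (fun ω => η (resL ω) (resR ω)) where
  irr_or_neg _ := isDirr_top.1 (F.dirr _ _)
  orthonormal ω ω' := by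
    rw [← cfdot_top, F.cfdot_eq]
    by_cases e : ω = ω'
    · rw [if_pos e, if_pos (F.prod.res_inj.1 e)]
    · rw [if_neg e, if_neg (mt F.prod.res_inj.2 e)]
  map_one := by rw [resL_one, resR_one, F.one, cf1_top]
  eq_on ω w h1 h2 := by
    rw [F.apply_eq _ _ (mem_cycV.2 ⟨w.2, h1, h2⟩), F.prod.omega_res, linChar_coe]
  induced_eq φ ψ _ _ h1 h2 := by
    rw [← resR_eq_one_iff] at h1
    rw [← resL_eq_one_iff] at h2
    rw [← F.prod.coe_alpha h1 h2, ← ind_top, F.ind_alpha, F.one, cf1_top, resL_mul, resR_mul, h1, h2,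
      LChar.mul_one, LChar.one_mul]
    rfl

/-- For odd `W` every family as in the Prelude is the family `η`. -/
theorem CycTI.family_eq [Fintype X] (h : CycTI ⊤ W₁ W₂) {χ : LChar (W₁ ⊔ W₂) → X → ℂ}
    (hχ : IsCyclicTIFamily W₁ W₂ χ) (ω : LChar (W₁ ⊔ W₂)) :
    χ ω = eta ⊤ W₁ W₂ (resL ω) (resR ω) :=
  h.eq_eta _ _ (isDirr_top.2 (hχ.irr_or_neg ω)) fun v hv => by
    rw [h.commProd.omega_res, linChar_of_mem _ (mem_cycV.1 hv).1]
    exact hχ.eq_on ω ⟨v, (mem_cycV.1 hv).1⟩ (mem_cycV.1 hv).2.1 (mem_cycV.1 hv).2.2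

end Cfsg.Lib.PF
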