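import Cfsg.Agent.Lib.PF.Sec4PrimeTI

/-!
# Hypothesis (4.2) for a whole group; linear characters of `W₁ ⊔ W₂` as pairs
-/

set_option autoImplicit false

namespace Cfsg.Lib.PF

variable {X : Type*} [Group X] [Finite X] {G K W₁ W₂ : Subgroup X}

omit [Finite X] in
theorem PrimeTI.of_normal [hK : K.Normal] (hKW₁ : K ⊓ W₁ = ⊥) (hKW₁' : K ⊔ W₁ = ⊤) (hW₁ : W₁ ≠ ⊥)
    (hW₁c : IsCyclic W₁) (hHall : Nat.Coprime (Nat.card W₁) W₁.index) (hW₂ : W₂ ≠ ⊥)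
    (hW₂c : IsCyclic W₂) (hC : ∀ x ∈ W₁, x ≠ 1 → K ⊓ Subgroup.centralizer ({x} : Set X) = W₂)
    (hodd : Odd (Nat.card ↥(W₁ ⊔ W₂))) : PrimeTI ⊤ K W₁ W₂ := by
  have hc : K.IsComplement' W₁ :=
    Subgroup.isComplement'_of_disjoint_and_mul_eq_univ (disjoint_iff.2 hKW₁) (by
      rw [← Subgroup.normal_mul, hKW₁', Subgroup.coe_top])
  refine ⟨⟨le_top, le_top, hKW₁, fun m _ => ?_⟩, Subgroup.le_normalizer_of_normal, hW₁, hW₁c, ?_,
    hW₂, hW₂c, hC, hodd⟩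
  · have hm : m ∈ K ⊔ W₁ := hKW₁' ▸ Subgroup.mem_top m
    obtain ⟨a, ha, b, hb, rfl⟩ :=
      (Core.mem_sup_of_le_normalizer_left Subgroup.le_normalizer_of_normal).1 hm
    exact ⟨a, ha, b, hb, rfl⟩
  · rwa [hc.index_eq_card] at hHall

/-- The restriction of a linear character of `W₁ ⊔ W₂` to `W₁`. -/
def lcharLeft (ω : LChar (W₁ ⊔ W₂)) : LChar W₁ := ω.comp (Subgroup.inclusion le_sup_left)

/-- The restriction of a linear character of `W₁ ⊔ W₂` to `W₂`. -/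
def lcharRight (ω : LChar (W₁ ⊔ W₂)) : LChar W₂ := ω.comp (Subgroup.inclusion le_sup_right)

theorem CycTI.omega_lchar (h : CycTI G W₁ W₂) (ω : LChar (W₁ ⊔ W₂)) :
    omega W₁ W₂ (lcharLeft ω) (lcharRight ω) = linChar (W₁ ⊔ W₂) ω := by
  refine CF.ext (Irr.mem_CF (h.omega_mem_Irr _ _)) (Irr.mem_CF (linChar_mem_Irr ω)) fun w hw => ?_
  obtain ⟨a, ha, b, hb, rfl⟩ := h.exists_mul hw
  rw [h.omega_mul _ _ ha hb, linChar_of_mem _ ha, linChar_of_mem _ hb, linChar_of_mem _ hw,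
    ← Units.val_mul]
  exact congrArg _ (map_mul ω _ _).symm

theorem CycTI.exists_lchar (h : CycTI G W₁ W₂) (i : LChar W₁) (j : LChar W₂) :
    ∃ ω : LChar (W₁ ⊔ W₂), lcharLeft ω = i ∧ lcharRight ω = j := by
  obtain ⟨ω, e⟩ := (Irr.isChar (h.omega_mem_Irr i j)).exists_linChar (h.omega_apply_one i j)
  rw [← h.omega_lchar, h.omega_inj] at e
  exact ⟨ω, e.1.symm, e.2.symm⟩

end Cfsg.Lib.PF
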